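import Cfsg.Agent.SpGeom.Basic
import Cfsg.Agent.OrthOrder.Step

/-!
`O_{2m+1}(q) ≅ Sp_{2m}(q)` in characteristic two.
-/

set_option autoImplicit false

open QuadraticMap CfsgLib.Forms Matrix

namespace CfsgLib.OrthOrder

variable {F : Type*} [Field F] [Fintype F] [CharP F 2] {m : ℕ}

theorem sq_inj {x y : F} (h : x ^ 2 = y ^ 2) : x = y := by
  rcases sq_eq_sq_iff_eq_or_eq_neg.1 h with h | h
  · exact h
  · rwa [CharTwo.neg_eq] at h

theorem polar_odd_two (u v : Unit ⊕ (Fin m ⊕ Fin m) → F) :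
    polar (Cfsg.quadFormOdd m F) u v = Cfsg.sympForm m F (u ∘ Sum.inr) (v ∘ Sum.inr) := by
  rw [polar_odd, CharTwo.two_eq_zero, zero_mul, zero_mul, zero_add, SpGeom.form_def]
  refine Finset.sum_congr rfl fun i _ => ?_
  rw [CharTwo.sub_eq_add]
  simp only [Function.comp_apply]
  ring

/-- The difference of the plus form before and after `A`. -/
def defect (A : Matrix (Fin m ⊕ Fin m) (Fin m ⊕ Fin m) F) (v : Fin m ⊕ Fin m → F) : F :=
  Cfsg.quadFormPlus m F v + Cfsg.quadFormPlus m F (A *ᵥ v)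

theorem sympForm_eq_polar (u v : Fin m ⊕ Fin m → F) :
    Cfsg.sympForm m F u v = polar (Cfsg.quadFormPlus m F) u v := by
  rw [SpGeom.form_def, polar_plus]
  refine Finset.sum_congr rfl fun i _ => ?_
  rw [CharTwo.sub_eq_add]
  ring

theorem defect_add (A : Matrix.symplecticGroup (Fin m) F) (u v : Fin m ⊕ Fin m → F) :
    defect (A : Matrix _ _ F) (u + v) = defect (A : Matrix _ _ F) u + defect (A : Matrix _ _ F) v := by
  have h1 := QuadraticMap.map_add (⇑(quadPlus F m)) u v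
  have h2 := QuadraticMap.map_add (⇑(quadPlus F m)) ((A : Matrix _ _ F) *ᵥ u) ((A : Matrix _ _ F) *ᵥ v)
  have h3 := SpGeom.form_mulVec A u v
  rw [sympForm_eq_polar, sympForm_eq_polar] at h3
  simp only [coe_quadPlus] at h1 h2
  rw [defect, defect, defect, Matrix.mulVec_add, h1, h2, h3]
  linear_combination polar (Cfsg.quadFormPlus m F) u v * (CharTwo.two_eq_zero : (2 : F) = 0)

theorem defect_smul (A : Matrix (Fin m ⊕ Fin m) (Fin m ⊕ Fin m) F) (t : F) (v : Fin m ⊕ Fin m → F) :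
    defect A (t • v) = t ^ 2 * defect A v := by
  have h1 := QuadraticMap.map_smul (quadPlus F m) t v
  have h2 := QuadraticMap.map_smul (quadPlus F m) t (A *ᵥ v)
  simp only [coe_quadPlus, smul_eq_mul] at h1 h2
  rw [defect, defect, Matrix.mulVec_smul, h1, h2]
  ring

theorem defect_eq_sum (A : Matrix.symplecticGroup (Fin m) F) (v : Fin m ⊕ Fin m → F) :
    defect (A : Matrix _ _ F) v = ∑ j, v j ^ 2 * defect (A : Matrix _ _ F) (Pi.single j 1) := by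
  let Φ : (Fin m ⊕ Fin m → F) →+ F :=
    AddMonoidHom.mk' (defect (A : Matrix _ _ F)) (defect_add A)
  conv_lhs => rw [pi_eq_sum_univ' v]
  show Φ _ = _
  rw [map_sum]
  exact Finset.sum_congr rfl fun j _ => defect_smul _ _ _

/-- `O_{2m+1} ≅ Sp_{2m}`. -/
theorem isometryGroup_odd_equiv_symplectic (m : ℕ) :
    Nonempty (Cfsg.isometryGroup F (Cfsg.quadFormOdd m F) ≃* Matrix.symplecticGroup (Fin m) F) := by
  classical
  have hpolar : ∀ (g : Cfsg.isometryGroup F (Cfsg.quadFormOdd m F)) (u v : Unit ⊕ (Fin m ⊕ Fin m) → F),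
      polar (Cfsg.quadFormOdd m F) (((g : GL (Unit ⊕ (Fin m ⊕ Fin m)) F) : Matrix (Unit ⊕ (Fin m ⊕ Fin m)) (Unit ⊕ (Fin m ⊕ Fin m)) F) *ᵥ u) (((g : GL (Unit ⊕ (Fin m ⊕ Fin m)) F) : Matrix (Unit ⊕ (Fin m ⊕ Fin m)) (Unit ⊕ (Fin m ⊕ Fin m)) F) *ᵥ v) =
        polar (Cfsg.quadFormOdd m F) u v := fun g u v => by
    have hg := mem_isometryGroup.1 g.2
    simp only [polar, ← Matrix.mulVec_add, hg]
  -- the radical vector is fixed
  have hcol : ∀ (g : Cfsg.isometryGroup F (Cfsg.quadFormOdd m F)) (i : Fin m ⊕ Fin m),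
      ((g : GL (Unit ⊕ (Fin m ⊕ Fin m)) F) : Matrix (Unit ⊕ (Fin m ⊕ Fin m)) (Unit ⊕ (Fin m ⊕ Fin m)) F) (.inr i) (.inl ()) = 0 := by
    intro g i
    have h0 : (((g : GL (Unit ⊕ (Fin m ⊕ Fin m)) F) : Matrix (Unit ⊕ (Fin m ⊕ Fin m)) (Unit ⊕ (Fin m ⊕ Fin m)) F) *ᵥ Pi.single (Sum.inl ()) 1) ∘ Sum.inr = 0 := by
      refine SpGeom.ext_form fun x => ?_
      obtain ⟨y, hy⟩ : ∃ y, (((g : GL (Unit ⊕ (Fin m ⊕ Fin m)) F) : Matrix (Unit ⊕ (Fin m ⊕ Fin m)) (Unit ⊕ (Fin m ⊕ Fin m)) F) *ᵥ y) ∘ Sum.inr = x := by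
        refine ⟨((g⁻¹ : Cfsg.isometryGroup F (Cfsg.quadFormOdd m F)) : GL _ F).1 *ᵥ Sum.elim 0 x, ?_⟩
        rw [Matrix.mulVec_mulVec, ← Units.val_mul, ← Subgroup.coe_mul, mul_inv_cancel]
        funext j; simp
      rw [← hy, ← polar_odd_two, hpolar, polar_odd_two, SpGeom.form_zero_left]
      rw [show ((Pi.single (Sum.inl ()) 1 : Unit ⊕ (Fin m ⊕ Fin m) → F)) ∘ Sum.inr = 0 by
        funext j; simp, SpGeom.form_zero_left]
    simpa [Matrix.mulVec_single] using congrFun h0 i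
  have hA : ∀ (g : Cfsg.isometryGroup F (Cfsg.quadFormOdd m F)) (v : Unit ⊕ (Fin m ⊕ Fin m) → F),
      (((g : GL (Unit ⊕ (Fin m ⊕ Fin m)) F) : Matrix (Unit ⊕ (Fin m ⊕ Fin m)) (Unit ⊕ (Fin m ⊕ Fin m)) F) *ᵥ v) ∘ Sum.inr =
        ((g : GL (Unit ⊕ (Fin m ⊕ Fin m)) F) : Matrix (Unit ⊕ (Fin m ⊕ Fin m)) (Unit ⊕ (Fin m ⊕ Fin m)) F).toBlocks₂₂ *ᵥ (v ∘ Sum.inr) := fun g v => by
    funext j
    simp [Matrix.mulVec, dotProduct, Matrix.toBlocks₂₂, hcol]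
  have hAsp : ∀ g : Cfsg.isometryGroup F (Cfsg.quadFormOdd m F),
      ((g : GL (Unit ⊕ (Fin m ⊕ Fin m)) F) : Matrix (Unit ⊕ (Fin m ⊕ Fin m)) (Unit ⊕ (Fin m ⊕ Fin m)) F).toBlocks₂₂ ∈ Matrix.symplecticGroup (Fin m) F := fun g => by
    refine SpGeom.mem_of_form fun u v => ?_
    have h := hpolar g (Sum.elim 0 u) (Sum.elim 0 v)
    rw [polar_odd_two, polar_odd_two, hA, hA] at h
    simpa using h
  let φ : Cfsg.isometryGroup F (Cfsg.quadFormOdd m F) →* Matrix.symplecticGroup (Fin m) F :=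
    MonoidHom.mk' (fun g => ⟨_, hAsp g⟩) fun g h => Subtype.ext (Matrix.ext fun i j => by
      simp [Matrix.toBlocks₂₂, Matrix.mul_apply, hcol])
  refine ⟨MulEquiv.ofBijective φ ⟨(injective_iff_map_eq_one φ).2 fun g hg => ?_, fun A => ?_⟩⟩
  · have hg' : ((g : GL (Unit ⊕ (Fin m ⊕ Fin m)) F) : Matrix (Unit ⊕ (Fin m ⊕ Fin m)) (Unit ⊕ (Fin m ⊕ Fin m)) F).toBlocks₂₂ = 1 := congrArg Subtype.val hg
    refine Subtype.ext (Units.ext (Matrix.ext_iff_mulVec.2 fun v => ?_))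
    have hr : (((g : GL (Unit ⊕ (Fin m ⊕ Fin m)) F) : Matrix (Unit ⊕ (Fin m ⊕ Fin m)) (Unit ⊕ (Fin m ⊕ Fin m)) F) *ᵥ v) ∘ Sum.inr = v ∘ Sum.inr := by
      rw [hA, hg', Matrix.one_mulVec]
    have hz := mem_isometryGroup.1 g.2 v
    simp only [Cfsg.quadFormOdd] at hz
    rw [Finset.sum_congr rfl fun i _ =>
      show (((g : GL (Unit ⊕ (Fin m ⊕ Fin m)) F) : Matrix (Unit ⊕ (Fin m ⊕ Fin m)) (Unit ⊕ (Fin m ⊕ Fin m)) F) *ᵥ v) (Sum.inr (Sum.inl i)) * (((g : GL (Unit ⊕ (Fin m ⊕ Fin m)) F) : Matrix (Unit ⊕ (Fin m ⊕ Fin m)) (Unit ⊕ (Fin m ⊕ Fin m)) F) *ᵥ v) (Sum.inr (Sum.inr i)) =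
        v (Sum.inr (Sum.inl i)) * v (Sum.inr (Sum.inr i)) by
        rw [show (((g : GL (Unit ⊕ (Fin m ⊕ Fin m)) F) : Matrix (Unit ⊕ (Fin m ⊕ Fin m)) (Unit ⊕ (Fin m ⊕ Fin m)) F) *ᵥ v) (Sum.inr (Sum.inl i)) = v (Sum.inr (Sum.inl i)) from congrFun hr _,
          show (((g : GL (Unit ⊕ (Fin m ⊕ Fin m)) F) : Matrix (Unit ⊕ (Fin m ⊕ Fin m)) (Unit ⊕ (Fin m ⊕ Fin m)) F) *ᵥ v) (Sum.inr (Sum.inr i)) = v (Sum.inr (Sum.inr i)) from congrFun hr _]] at hz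
    rw [OneMemClass.coe_one, Units.val_one, Matrix.one_mulVec]
    funext j
    rcases j with u | j
    · exact sq_inj (add_right_cancel hz)
    · exact congrFun hr j
  · choose c hc using fun j : Fin m ⊕ Fin m =>
      exists_sq (CharTwo.two_eq_zero : (2 : F) = 0) (defect (A : Matrix _ _ F) (Pi.single j 1))
    set M : Matrix (Unit ⊕ (Fin m ⊕ Fin m)) (Unit ⊕ (Fin m ⊕ Fin m)) F :=
      Matrix.fromBlocks 1 (Matrix.of fun _ j => c j) 0 (A : Matrix _ _ F)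
    have hdet : M.det ≠ 0 := by
      rw [Matrix.det_fromBlocks_zero₂₁, Matrix.det_one, one_mul]
      exact (SymplecticGroup.symplectic_det A.2).ne_zero
    have hmem : Matrix.GeneralLinearGroup.mkOfDetNeZero M hdet ∈
        Cfsg.isometryGroup F (Cfsg.quadFormOdd m F) := by
      refine mem_isometryGroup.2 fun v => ?_
      have hr : (M *ᵥ v) ∘ Sum.inr = (A : Matrix _ _ F) *ᵥ (v ∘ Sum.inr) := by
        funext j; simp [M, Matrix.fromBlocks_mulVec]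
      have hl : (M *ᵥ v) (Sum.inl ()) = v (Sum.inl ()) + ∑ j, c j * v (Sum.inr j) := by
        simp [M, Matrix.fromBlocks_mulVec, Matrix.mulVec, dotProduct]
      have hd := defect_eq_sum A (v ∘ Sum.inr)
      have hsq : (∑ j, c j * v (Sum.inr j)) ^ 2 = defect (A : Matrix _ _ F) (v ∘ Sum.inr) := by
        rw [hd, CharTwo.sum_sq]
        exact Finset.sum_congr rfl fun j _ => by simp [← hc, mul_pow, _root_.sq]; ring
      rw [show (Matrix.GeneralLinearGroup.mkOfDetNeZero M hdet : GL _ F).1 = M from rfl]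
      show (M *ᵥ v) (Sum.inl ()) ^ 2 + Cfsg.quadFormPlus m F ((M *ᵥ v) ∘ Sum.inr) =
        v (Sum.inl ()) ^ 2 + Cfsg.quadFormPlus m F (v ∘ Sum.inr)
      rw [hr, hl, CharTwo.add_sq, hsq, defect]
      linear_combination Cfsg.quadFormPlus m F ((A : Matrix _ _ F) *ᵥ (v ∘ Sum.inr)) * (CharTwo.two_eq_zero : (2 : F) = 0)
    exact ⟨⟨_, hmem⟩, Subtype.ext (Matrix.ext fun i j => by simp [φ, M, Matrix.toBlocks₂₂])⟩

end CfsgLib.OrthOrder
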