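import Cfsg.Agent.OrthOrder.Orders
import Mathlib.GroupTheory.SpecificGroups.Dihedral
import Mathlib.RingTheory.IntegralDomain

/-!
The two-dimensional orthogonal groups are dihedral.
-/

set_option autoImplicit false

open QuadraticMap CfsgLib.Forms

namespace CfsgLib.OrthOrder

/-- A group with a cyclic subgroup of index two inverted by an outside involution. -/
theorem nonempty_dihedral {G : Type*} [Group G] {n : ℕ} [NeZero n] (hG : Nat.card G = 2 * n) {g s : G}
    (hg : orderOf g = n) (hs : s ∉ Subgroup.zpowers g) (hss : s * s = 1) (hsg : s * g * s = g⁻¹) :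
    Nonempty (G ≃* DihedralGroup n) := by
  have hpow : ∀ i j : ZMod n, g ^ (i + j).val = g ^ i.val * g ^ j.val := fun i j => by
    rw [← pow_add, pow_eq_pow_iff_modEq, hg, ZMod.val_add]
    exact Nat.mod_modEq _ _
  have hsub : ∀ i j : ZMod n, g ^ (i - j).val = g ^ i.val * (g ^ j.val)⁻¹ := fun i j => by
    rw [eq_mul_inv_iff_mul_eq, ← hpow, sub_add_cancel]
  have hconj : ∀ k : ℕ, g ^ k * s = s * (g ^ k)⁻¹ := fun k => by
    induction k with
    | zero => simp
    | succ k ih =>
      have hgs : g * s = s * g⁻¹ := by rw [← hsg, ← mul_assoc, ← mul_assoc, hss, one_mul]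
      calc g ^ (k + 1) * s = g ^ k * (g * s) := by rw [pow_succ, mul_assoc]
        _ = g ^ k * s * g⁻¹ := by rw [hgs, mul_assoc]
        _ = s * (g ^ (k + 1))⁻¹ := by rw [ih, mul_assoc, pow_succ', mul_inv_rev]
  let φ : DihedralGroup n →* G :=
    MonoidHom.mk' (fun x => match x with
      | .r i => g ^ i.val
      | .sr i => s * g ^ i.val) (by
      rintro (i | i) (j | j) <;> simp only [DihedralGroup.r_mul_r, DihedralGroup.r_mul_sr,
        DihedralGroup.sr_mul_r, DihedralGroup.sr_mul_sr]
      · exact hpow i j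
      · rw [hsub, ← mul_assoc (g ^ i.val), hconj, mul_assoc]
        congr 1
        exact ((Commute.pow_pow_self g _ _).inv_right).eq
      · rw [hpow, mul_assoc]
      · rw [hsub, mul_assoc s, ← mul_assoc (g ^ i.val), hconj, ← mul_assoc, ← mul_assoc, hss, one_mul]
        group)
  have hinj : Function.Injective φ := by
    refine (injective_iff_map_eq_one φ).2 fun x hx => ?_
    rcases x with i | i
    · change g ^ i.val = 1 at hx
      have : i.val = 0 := Nat.eq_zero_of_dvd_of_lt (hg.symm.dvd.trans (orderOf_dvd_of_pow_eq_one hx)) (ZMod.val_lt i)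
      rw [(ZMod.val_eq_zero i).1 this]; rfl
    · change s * g ^ i.val = 1 at hx
      exact absurd (by rw [eq_inv_of_mul_eq_one_left hx]; exact inv_mem (pow_mem (Subgroup.mem_zpowers g) _)) hs
  have : Finite G := Nat.finite_of_card_ne_zero (by rw [hG]; have := NeZero.ne n; omega)
  have hbij := (Nat.bijective_iff_injective_and_card φ).2 ⟨hinj, by rw [DihedralGroup.nat_card, hG]⟩
  exact ⟨(MulEquiv.ofBijective φ hbij).symm⟩

variable {F : Type*} [Field F] [Fintype F]

/-- `O⁺₂(q)` is dihedral. -/
theorem isometryGroup_plus_one :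
    Nonempty (Cfsg.isometryGroup F (Cfsg.quadFormPlus 1 F) ≃* DihedralGroup (Fintype.card F - 1)) := by
  classical
  have : NeZero (Fintype.card F - 1) := ⟨by have := Fintype.one_lt_card (α := F); omega⟩
  rw [← coe_quadPlus]
  obtain ⟨e⟩ : Nonempty (Cfsg.isometryGroup F ⇑(quadPlus F 1) ≃* isom (quadPlus F 1)) := ⟨isoEquiv _⟩
  suffices h : Nonempty (isom (quadPlus F 1) ≃* DihedralGroup (Fintype.card F - 1)) from
    ⟨e.trans h.some⟩
  let E := Fin 1 ⊕ Fin 1 → F
  let D : Fˣ → E ≃ₗ[F] E := fun c =>
    LinearEquiv.piCongrRight (Sum.elim (fun _ => LinearEquiv.smulOfUnit c) fun _ => LinearEquiv.smulOfUnit c⁻¹)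
  have hD : ∀ (c : Fˣ) (v : E), (D c v (.inl 0) = c * v (.inl 0)) ∧ (D c v (.inr 0) = ↑(c⁻¹) * v (.inr 0)) :=
    fun c v => ⟨rfl, rfl⟩
  have hDmem : ∀ c, D c ∈ isom (quadPlus F 1) := fun c v => by
    simp only [coe_quadPlus, Cfsg.quadFormPlus, Fin.sum_univ_one, (hD c v).1, (hD c v).2]
    rw [mul_mul_mul_comm, Units.mul_inv, one_mul]
  have hext : ∀ g h : E ≃ₗ[F] E, (∀ v, g v (.inl 0) = h v (.inl 0) ∧ g v (.inr 0) = h v (.inr 0)) → g = h := by
    intro g h H
    refine LinearEquiv.ext fun v => funext fun j => ?_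
    rcases j with j | j <;> rw [Subsingleton.elim j 0]
    exacts [(H v).1, (H v).2]
  let φ : Fˣ →* isom (quadPlus F 1) :=
    MonoidHom.mk' (fun c => ⟨D c, hDmem c⟩) fun c d => Subtype.ext (hext _ _ fun v => by
      simp only [Subgroup.coe_mul, LinearEquiv.mul_apply, hD, Units.val_mul, mul_inv]
      constructor <;> ring)
  have hinj : Function.Injective φ := fun c d h => by
    have := congrFun (LinearEquiv.congr_fun (congrArg Subtype.val h) (fun _ => (1 : F))) (.inl 0)
    exact Units.ext (by simpa [φ, (hD _ _).1] using this)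
  obtain ⟨c, hc⟩ := IsCyclic.exists_generator (α := Fˣ)
  let S : E ≃ₗ[F] E := LinearEquiv.funCongrLeft F F (Equiv.sumComm (Fin 1) (Fin 1))
  have hS : ∀ v : E, S v (.inl 0) = v (.inr 0) ∧ S v (.inr 0) = v (.inl 0) := fun v => ⟨rfl, rfl⟩
  have hSmem : S ∈ isom (quadPlus F 1) := fun v => by
    simp only [coe_quadPlus, Cfsg.quadFormPlus, Fin.sum_univ_one, (hS v).1, (hS v).2, mul_comm]
  refine nonempty_dihedral ?_ (g := φ c) (s := ⟨S, hSmem⟩) ?_ ?_ ?_ ?_
  · rw [card_isom_plus 0]; simp
  · rw [orderOf_injective φ hinj, orderOf_eq_card_of_forall_mem_zpowers hc, Nat.card_units,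
      Nat.card_eq_fintype_card]
  · rintro ⟨k, hk⟩
    dsimp only at hk
    rw [← map_zpow] at hk
    have := congrFun (LinearEquiv.congr_fun (congrArg Subtype.val hk) (Pi.single (.inl 0) (1 : F))) (.inl 0)
    simp [φ, (hD _ _).1, (hS _).1] at this
    exact zpow_ne_zero _ c.ne_zero this
  · exact Subtype.ext (hext _ _ fun v => by simp [LinearEquiv.mul_apply, hS])
  · rw [← map_inv]
    exact Subtype.ext (hext _ _ fun v => by simp [φ, LinearEquiv.mul_apply, hS, hD])

/-- `O⁻₂(q)` is dihedral. -/
theorem isometryGroup_minus_zero {a b : F}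
    (hab : ∀ z₁ z₂ : F, z₁ ^ 2 + a * z₁ * z₂ + b * z₂ ^ 2 = 0 → z₁ = 0 ∧ z₂ = 0) :
    Nonempty (Cfsg.isometryGroup F (Cfsg.quadFormMinus 0 F a b) ≃* DihedralGroup (Fintype.card F + 1)) := by
  classical
  rw [← coe_quadMinus]
  suffices h : Nonempty (isom (quadMinus F 0 a b) ≃* DihedralGroup (Fintype.card F + 1)) from
    ⟨(isoEquiv _).trans h.some⟩
  have hfact : Fact (∀ r : F, r ^ 2 ≠ -b + a * r) := ⟨fun r h => one_ne_zero (by
    have := (hab r (-1) (by linear_combination h)).2
    exact neg_eq_zero.1 this)⟩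
  let K := QuadraticAlgebra F (-b) a
  have : Finite K := Module.finite_of_finite F
  let E := (Fin 0 ⊕ Fin 0) ⊕ Fin 2 → F
  let ε : E ≃ₗ[F] K :=
    { toFun := fun v => ⟨v (.inr 0), v (.inr 1)⟩
      invFun := fun z => Sum.elim 0 ![z.re, z.im]
      map_add' := fun _ _ => rfl
      map_smul' := fun _ _ => rfl
      left_inv := fun v => funext fun j => by
        rcases j with (i | i) | i
        · exact i.elim0
        · exact i.elim0
        · fin_cases i <;> simp
      right_inv := fun z => by ext <;> simp }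
  have hQ : ∀ v, quadMinus F 0 a b v = QuadraticAlgebra.norm (ε v) := fun v => by
    simp [ε, Cfsg.quadFormMinus, QuadraticAlgebra.norm_def]; ring
  set U : Subgroup Kˣ := (Units.map (QuadraticAlgebra.norm : K →* F)).ker with hU
  have hmem : ∀ u : Kˣ, u ∈ U ↔ QuadraticAlgebra.norm (u : K) = 1 := fun u => by
    simp [hU, MonoidHom.mem_ker, Units.ext_iff]
  let L : Kˣ → E ≃ₗ[F] E := fun u =>
    (ε.trans ((LinearEquiv.smulOfUnit u).restrictScalars F)).trans ε.symm
  have hL : ∀ u v, ε (L u v) = (u : K) * ε v := fun u v => by simp [L, LinearEquiv.smulOfUnit, Units.smul_def]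
  let φ : U →* isom (quadMinus F 0 a b) :=
    MonoidHom.mk' (fun u => ⟨L u.1, fun v => by
      rw [hQ, hQ, hL, map_mul, (hmem _).1 u.2, one_mul]⟩) fun u w =>
      Subtype.ext (LinearEquiv.ext fun v => ε.injective (by
        simp [LinearEquiv.mul_apply, hL, mul_assoc]))
  have hinj : Function.Injective φ := fun u w h => by
    have := congrArg ε (LinearEquiv.congr_fun (congrArg Subtype.val h) (ε.symm 1))
    exact Subtype.ext (Units.ext (by simpa [φ, hL] using this))
  have hcard : Nat.card U = Fintype.card F + 1 := by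
    rw [← Nat.card_eq_fintype_card, ← card_level_binary hab one_ne_zero]
    refine Nat.card_congr
      { toFun := fun u => ⟨ε.symm (u.1 : K), by rw [hQ, LinearEquiv.apply_symm_apply]; exact (hmem _).1 u.2⟩
        invFun := fun v => ⟨Units.mk0 (ε v.1) fun h => by
            have := v.2
            rw [hQ, h, QuadraticAlgebra.norm_zero] at this
            exact zero_ne_one this, (hmem _).2 (by rw [Units.val_mk0, ← hQ]; exact v.2)⟩
        left_inv := fun u => Subtype.ext (Units.ext (ε.apply_symm_apply _))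
        right_inv := fun v => Subtype.ext (ε.symm_apply_apply _) }
  obtain ⟨u, hu⟩ := IsCyclic.exists_generator (α := U)
  let St : K ≃ₗ[F] K :=
    { toFun := star
      invFun := star
      map_add' := fun x y => star_add x y
      map_smul' := fun c z => QuadraticAlgebra.ext (by simp [K]; ring) (by simp [K])
      left_inv := fun z => star_star z
      right_inv := fun z => star_star z }
  let S : E ≃ₗ[F] E := (ε.trans St).trans ε.symm
  have hS : ∀ v, ε (S v) = star (ε v) := fun v => by simp [S, St]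
  have hSmem : S ∈ isom (quadMinus F 0 a b) := fun v => by
    rw [hQ, hQ, hS, QuadraticAlgebra.norm_star]
  have hstar : ∀ w : U, star ((w.1 : Kˣ) : K) = ((w⁻¹).1 : Kˣ) := fun w => by
    rw [Subgroup.coe_inv, Units.val_inv_eq_inv_val]
    refine eq_inv_of_mul_eq_one_right ?_
    rw [← QuadraticAlgebra.algebraMap_norm_eq_mul_star, (hmem _).1 w.2, map_one]
  refine nonempty_dihedral ?_ (g := φ u) (s := ⟨S, hSmem⟩) ?_ ?_ ?_ ?_
  · rw [card_isom_binary hab, Nat.card_eq_fintype_card]
  · rw [orderOf_injective φ hinj, orderOf_eq_card_of_forall_mem_zpowers hu, hcard]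
  · rintro ⟨k, hk⟩
    dsimp only at hk
    rw [← map_zpow] at hk
    have key : ∀ v, star (ε v) = ((u ^ k).1 : K) * ε v := fun v => by
      rw [← hS, ← hL]
      exact congrArg ε (LinearEquiv.congr_fun (congrArg Subtype.val hk) v).symm
    have h1 : ((u ^ k).1 : K) = 1 := by
      have h := (key (ε.symm 1)).symm
      rw [LinearEquiv.apply_symm_apply, mul_one] at h
      exact h.trans (star_one K)
    have h2 := key (ε.symm ⟨0, 1⟩)
    rw [h1, one_mul, LinearEquiv.apply_symm_apply] at h2
    have ha : a = 0 := by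
      have h : (0 : F) + a * 1 = 0 := congrArg QuadraticAlgebra.re h2
      simpa using h
    have htwo : (2 : F) = 0 := by
      have h : -(1 : F) = 1 := congrArg QuadraticAlgebra.im h2
      linear_combination -h
    obtain ⟨r, hr⟩ := exists_sq htwo b
    exact one_ne_zero (hab r 1 (by rw [ha]; linear_combination hr + b * htwo)).2
  · exact Subtype.ext (LinearEquiv.ext fun v => ε.injective (by
      simp [LinearEquiv.mul_apply, hS]
      exact star_star (ε v)))
  · rw [← map_inv]
    exact Subtype.ext (LinearEquiv.ext fun v => ε.injective (by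
      simp [φ, LinearEquiv.mul_apply, hS, hL]
      have h := hstar u
      rw [Subgroup.coe_inv, Units.val_inv_eq_inv_val] at h
      rw [← h]
      exact (star_mul' _ _).trans (congrArg _ (star_star _))))

end CfsgLib.OrthOrder
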